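import Cfsg.Agent.FischerGQ.Cert.FiveB.Data

/-! Generated: checks of the rows. -/

set_option autoImplicit false
set_option maxRecDepth 100000

namespace CfsgLib.FischerGQ.Cert.FiveB

open CfsgLib.CosetEnum

theorem rows0 : allFrom (checkRow epF (fun x => x) 2531 7 nodeF TF tfF 528) 0 256 = true := by
  decide +kernel

theorem rows256 : allFrom (checkRow epF (fun x => x) 2531 7 nodeF TF tfF 528) 256 256 = true := by
  decide +kernel

theorem rows512 : allFrom (checkRow epF (fun x => x) 2531 7 nodeF TF tfF 528) 512 16 = true := by
  decide +kernel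

end CfsgLib.FischerGQ.Cert.FiveB
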